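import Mathlib
import Cfsg.Agent.Lib.Block.Fong
import Cfsg.Agent.Lib.Block.Height

/-!
# An invariant character of height zero

If `N ⊴ G` has `p`-power index and `b` is a `G`-stable `p`-block of `N` then `b` contains a `G`-invariant
character of height zero.
-/

set_option autoImplicit false
set_option linter.unusedSectionVars false
set_option linter.unusedSimpArgs false
set_option linter.unusedVariables false

open Cfsg Cfsg.Agent.Lib.Block Cfsg.Agent.Lib.Char

namespace Cfsg.Agent.Lib.Degree

section Main

variable {G : Type*} [Group G] [Fintype G] (N : Subgroup G) [hN : N.Normal] [Fintype N] {p : ℕ} [hp : Fact p.Prime]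
  {M : Ideal AlgInt}

theorem exists_invariant_height_zero (hM : IsPModular p M) {b : Set (IrrCharacter N)} (hb : IsPBlock M b)
    (hst : IsStable N b) {k : ℕ} (hk : N.index = p ^ k) :
    ∃ θ ∈ b, (charDegree (θ : N → ℂ)).factorization p = minExp p b ∧ ∀ g : G, conjIrr N g θ = θ := by
  classical
  haveI := isPModular_isPrime hM
  obtain ⟨S⟩ : Nonempty (Sylow p G) := inferInstance
  obtain ⟨x, hx1, hx2, hx3⟩ := exists_fixed_defect_class hM hb hst (S := (S : Subgroup G)) S.isPGroup'
  have hU := isBlockUnion_of_isPBlock hb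
  have hdc : IsDefectClass M b x := ⟨by rw [← coeff_blockElt]; exact localCoeff_blockElt hU x, hx1, hx2⟩
  have hv := factorization_centralizer_of_defectClass hM hb hdc
  set A := Subgroup.centralizer ({(x : G)} : Set G) with hA
  have hNS : N ⊔ (S : Subgroup G) = ⊤ := by
    have h1 : (N ⊔ (S : Subgroup G)).index ∣ p ^ k := hk ▸ Subgroup.index_dvd_of_le le_sup_left
    have h2 : (N ⊔ (S : Subgroup G)).index ∣ (S : Subgroup G).index := Subgroup.index_dvd_of_le le_sup_right
    obtain ⟨j, -, hj⟩ := (Nat.dvd_prime_pow hp.out).mp h1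
    have hj0 : j = 0 := by
      by_contra h0
      apply S.not_dvd_index
      rw [hj] at h2
      exact (dvd_pow_self p h0).trans h2
    rw [hj0, pow_zero] at hj
    exact Subgroup.index_eq_one.mp hj
  have hcov : N ⊔ A = ⊤ := by
    rw [eq_top_iff]
    intro g _
    have h1 : g ∈ N ⊔ (S : Subgroup G) := by rw [hNS]; exact Subgroup.mem_top g
    rw [← SetLike.mem_coe, Subgroup.normal_mul, Set.mem_mul] at h1
    obtain ⟨n, hn, s, hs, rfl⟩ := h1
    obtain ⟨c, hc⟩ := isConj_iff.mp (hx3 s hs)
    have hcA : (c : G) * s ∈ A := by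
      rw [hA, Subgroup.mem_centralizer_singleton_iff]
      have h2 := congrArg (Subtype.val) hc
      have h3 : (conjEquiv hN s x : G) = s * x * s⁻¹ := rfl
      simp only [Subgroup.coe_mul, InvMemClass.coe_inv, h3] at h2
      calc (c : G) * s * x = (c * (s * x * s⁻¹) * (c : G)⁻¹) * (c * s) := by group
        _ = x * (c * s) := by rw [h2]
    have e : n * s = (n * (c : G)⁻¹) * (c * s) := by group
    rw [e]
    exact Subgroup.mul_mem_sup (N.mul_mem hn (N.inv_mem c.2)) hcA
  have hrel : N.relIndex A = p ^ k := by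
    rw [← hk, ← Subgroup.relIndex_sup_left A N, hcov, Subgroup.relIndex_top_right]
  have hcardA : Nat.card A = Nat.card (Subgroup.centralizer ({x} : Set N)) * p ^ k := by
    have h1 := Subgroup.card_mul_index (N.subgroupOf A)
    rw [← hrel]
    change _ = _ * (N.subgroupOf A).index
    rw [← h1]
    congr 1
    refine Nat.card_congr ⟨fun y => ⟨⟨y.1.1, Subgroup.mem_subgroupOf.mp y.2⟩, ?_⟩,
      fun y => ⟨⟨y.1.1, ?_⟩, Subgroup.mem_subgroupOf.mpr y.1.2⟩, fun y => rfl, fun y => rfl⟩
    · rw [Subgroup.mem_centralizer_singleton_iff]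
      apply Subtype.ext
      exact Subgroup.mem_centralizer_singleton_iff.mp y.1.2
    · rw [hA, Subgroup.mem_centralizer_singleton_iff]
      have := Subgroup.mem_centralizer_singleton_iff.mp y.2
      exact congrArg Subtype.val this
  obtain ⟨Q⟩ : Nonempty (Sylow p A) := inferInstance
  set D := (Q : Subgroup A).map A.subtype with hD
  haveI : Fintype D := Fintype.ofFinite _
  have hDc : Nat.card D = p ^ (Nat.card A).factorization p := card_map_sylow Q
  have hDle : D ≤ Subgroup.centralizer ({(x : G)} : Set G) := by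
    rintro _ ⟨a, _, rfl⟩
    exact a.2
  have hUo : IsBlockUnion M (overSet N b) := isBlockUnion_over N hst hU
  have hcoef : blockCoeff (overSet N b) (x : G) = blockCoeff b x := by
    have e := congrArg (fun z => z.coeff (x : G)) (incl_blockElt_eq_over N hst)
    simp only [coeff_incl_coe, coeff_blockElt] at e
    exact e.symm
  have hne : (overSet N b).Nonempty := by
    obtain ⟨θ, hθ⟩ := IsPBlock_nonempty hb
    obtain ⟨χ, hχ⟩ := exists_irr_over N θ
    exact ⟨χ, θ, hθ, hχ⟩
  obtain ⟨χ₀, hχ₀, he⟩ := exists_height_zero (p := p) hne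
  set e := minExp p (overSet N b) with heq
  have hall : ∀ χ ∈ overSet N b, p ^ e ∣ charDegree (χ : G → ℂ) := fun χ hχ =>
    (pow_dvd_pow p (minExp_le (p := p) hχ)).trans (Nat.ordProj_dvd _ _)
  have hmain := add_le_factorization_of_unit hM hUo hall (g := (x : G)) (by rw [hcoef]; exact hx1)
    (by rw [hcoef]; exact hdc.1) hDc hDle
  -- the numerics
  have hb0 : minExp p b ≤ (Nat.card N).factorization p := minExp_le_factorization_card (IsPBlock_nonempty hb)
  have hGc : Nat.card G = Nat.card N * p ^ k := by
    rw [← hk]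
    exact (Subgroup.card_mul_index N).symm
  have hfG : (Nat.card G).factorization p = (Nat.card N).factorization p + k := by
    rw [hGc, Nat.factorization_mul Nat.card_pos.ne' (pow_ne_zero _ hp.out.ne_zero), Finsupp.add_apply,
      Nat.factorization_pow, Finsupp.smul_apply, hp.out.factorization_self]
    simp
  have hfA : (Nat.card A).factorization p = (Nat.card (Subgroup.centralizer ({x} : Set N))).factorization p + k := by
    rw [hcardA, Nat.factorization_mul Nat.card_pos.ne' (pow_ne_zero _ hp.out.ne_zero), Finsupp.add_apply,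
      Nat.factorization_pow, Finsupp.smul_apply, hp.out.factorization_self]
    simp
  have hle : e ≤ minExp p b := by omega
  obtain ⟨θ₀, hθ₀, hc⟩ := hχ₀
  have hχc := IsIrrCharacter.isCharacter χ₀.2
  obtain ⟨m, hm⟩ := classInner_isCharacter_nat (IsCharacter.restrict N hχc) (IsIrrCharacter.isCharacter θ₀.2)
  have hm0 : m ≠ 0 := by
    rintro rfl
    apply hc
    rw [hm]
    simp
  have hdeg := clifford_degree hN χ₀.2 θ₀.2 hm hm0
  have hi0 : (inertia hN (θ₀ : N → ℂ)).index ≠ 0 := Subgroup.index_ne_zero_of_finite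
  have hd0 := charDegree_ne_zero (χ := θ₀)
  have hfac : (charDegree (χ₀ : G → ℂ)).factorization p = m.factorization p +
      (inertia hN (θ₀ : N → ℂ)).index.factorization p + (charDegree (θ₀ : N → ℂ)).factorization p := by
    rw [hdeg, Nat.factorization_mul (mul_ne_zero hm0 hi0) hd0, Nat.factorization_mul hm0 hi0]
    rfl
  have hθle := minExp_le (p := p) hθ₀
  have hNin : N ≤ inertia hN (θ₀ : N → ℂ) := by
    intro n hn
    rw [mem_inertia]
    funext y
    exact IsCharacter.isClassFunction (IsIrrCharacter.isCharacter θ₀.2) y ⟨n, hn⟩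
  refine ⟨θ₀, hθ₀, by omega, fun g => ?_⟩
  have hv0 : (inertia hN (θ₀ : N → ℂ)).index.factorization p = 0 := by omega
  have hnd : ¬ p ∣ (inertia hN (θ₀ : N → ℂ)).index := by
    intro hd
    have := (hp.out.dvd_iff_one_le_factorization hi0).mp hd
    omega
  have hdvd : (inertia hN (θ₀ : N → ℂ)).index ∣ p ^ k := hk ▸ Subgroup.index_dvd_of_le hNin
  obtain ⟨j, -, hj⟩ := (Nat.dvd_prime_pow hp.out).mp hdvd
  have hj0 : j = 0 := by
    by_contra h0
    apply hnd
    rw [hj]
    exact dvd_pow_self p h0
  rw [hj0, pow_zero] at hj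
  have htop := Subgroup.index_eq_one.mp hj
  have hg : g ∈ inertia hN (θ₀ : N → ℂ) := by rw [htop]; exact Subgroup.mem_top g
  rw [mem_inertia] at hg
  exact Subtype.ext hg

end Main

end Cfsg.Agent.Lib.Degree
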