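import Mathlib
import Cfsg.Agent.Lib.BPair.Inertial
import Cfsg.Agent.Lib.BPair.Induced
import Cfsg.Agent.Lib.Core.Basic
import Cfsg.Prelude.Def_OddOrderLocal

/-!
# Normal subgroups of order prime to `p` in the kernel of Brauer pairs

For a subgroup `X` of order prime to `p`, the averaging element `kerElt X` detects whether `X` lies
in the kernel of an irreducible character.  Through the Brauer map this allows one to move the property
"`O_{π'}(C_G(Q))` lies in the kernel of `f`" along inclusions of Brauer pairs.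
-/

set_option autoImplicit false
set_option linter.unusedSectionVars false
set_option linter.unusedSimpArgs false
set_option linter.unusedVariables false

open scoped ComplexConjugate Pointwise
open Cfsg MonoidAlgebra
open Cfsg.Agent.Lib.Block Cfsg.Agent.Lib.Char Cfsg.Agent.Lib.CharExtra Cfsg.Agent.Lib.BPair

namespace Cfsg.Agent.Lib.Degree

attribute [local instance] subFintype

section KerElt

variable {G : Type*} [Group G] [Fintype G] {M : Ideal AlgInt} [hMp : M.IsPrime] {p : ℕ} [hp : Fact p.Prime]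

open Classical in
/-- The average of the elements of a subgroup. -/
noncomputable def kerElt (X : Subgroup G) : MonoidAlgebra ℂ G :=
  ofFun (fun g => if g ∈ X then (Nat.card X : ℂ)⁻¹ else 0)

theorem coeff_kerElt_of_mem {X : Subgroup G} {g : G} (h : g ∈ X) :
    (kerElt X).coeff g = (Nat.card X : ℂ)⁻¹ := by
  classical
  unfold kerElt
  rw [coeff_ofFun, if_pos h]

theorem coeff_kerElt_of_notMem {X : Subgroup G} {g : G} (h : g ∉ X) : (kerElt X).coeff g = 0 := by
  classical
  unfold kerElt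
  rw [coeff_ofFun, if_neg h]

theorem localCoeff_kerElt (hM : IsPModular p M) {X : Subgroup G} (hX : ¬ p ∣ Nat.card X) :
    LocalCoeff M (kerElt X) := by
  intro g
  by_cases h : g ∈ X
  · rw [coeff_kerElt_of_mem h]
    exact memLocalRing_natCast_inv hM hX
  · rw [coeff_kerElt_of_notMem h]
    exact memLocalRing_zero

theorem isInvBy_kerElt {T X : Subgroup G} (h : ∀ u ∈ T, ∀ g ∈ X, u * g * u⁻¹ ∈ X) :
    IsInvBy T (kerElt X) := by
  intro u hu g
  have h1 : u * g * u⁻¹ ∈ X ↔ g ∈ X := by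
    constructor
    · intro h2
      have h3 := h u⁻¹ (T.inv_mem hu) _ h2
      have e : u⁻¹ * (u * g * u⁻¹) * u⁻¹⁻¹ = g := by group
      rwa [e] at h3
    · exact h u hu g
  by_cases hg : g ∈ X
  · rw [coeff_kerElt_of_mem hg, coeff_kerElt_of_mem (h1.2 hg)]
  · rw [coeff_kerElt_of_notMem hg, coeff_kerElt_of_notMem (fun h2 => hg (h1.1 h2))]

theorem isCentralElt_kerElt (X : Subgroup G) [hN : X.Normal] : IsCentralElt (kerElt X) := by
  have h : IsInvBy ⊤ (kerElt X) := isInvBy_kerElt (fun u _ g hg => hN.conj_mem g hg u)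
  exact fun x g => h x (Subgroup.mem_top x) g

theorem tr_kerElt (φ : G → ℂ) (X : Subgroup G) :
    tr φ (kerElt X) = (Nat.card X : ℂ)⁻¹ * ∑ x : X, φ x := by
  classical
  unfold tr
  rw [sum_eq_sum_subgroup X (fun g => (kerElt X).coeff g * φ g)
    (fun k hk => by rw [coeff_kerElt_of_notMem hk, zero_mul]), Finset.mul_sum]
  refine Finset.sum_congr rfl fun x _ => ?_
  rw [coeff_kerElt_of_mem x.2]

theorem om_kerElt_of_le (χ : IrrCharacter G) {X : Subgroup G}
    (h : ∀ x ∈ X, (χ : G → ℂ) x = (χ : G → ℂ) 1) : om (χ : G → ℂ) (kerElt X) = 1 := by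
  classical
  unfold om
  rw [tr_kerElt]
  have e : ∀ x : X, (χ : G → ℂ) x = (χ : G → ℂ) 1 := fun x => h x x.2
  simp only [e, Finset.sum_const, Finset.card_univ, nsmul_eq_mul]
  rw [Fintype.card_eq_nat_card]
  have hc : (Nat.card X : ℂ) ≠ 0 := by exact_mod_cast Nat.card_pos.ne'
  have h1 := isIrr_one_ne_zero χ.2
  field_simp

theorem om_kerElt_eq_zero (χ : IrrCharacter G) {X : Subgroup G} [X.Normal]
    (h : ¬ ∀ x ∈ X, (χ : G → ℂ) x = (χ : G → ℂ) 1) : om (χ : G → ℂ) (kerElt X) = 0 := by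
  classical
  have h1 := mt (classInner_one_iff X χ).1 h
  push Not at h1
  unfold om
  rw [tr_kerElt]
  unfold classInner at h1
  rw [oneIrr_coe] at h1
  simp only [map_one, mul_one] at h1
  rw [h1, zero_div]

/-- A central element on which all central characters vanish is zero. -/
theorem eq_zero_of_om_eq_zero {z : MonoidAlgebra ℂ G} (hz : IsCentralElt z)
    (h : ∀ χ : IrrCharacter G, om (χ : G → ℂ) z = 0) : z = 0 := by
  classical
  apply ext_coeff
  intro g
  rw [coeff_central_eq hz g]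
  have : ∀ χ : IrrCharacter G, tr (χ : G → ℂ) z = 0 := by
    intro χ
    have h1 := h χ
    unfold om at h1
    have h2 := isIrr_one_ne_zero χ.2
    exact (div_eq_zero_iff.mp h1).resolve_right h2
  simp [this]

theorem blockElt_mul_kerElt_eq_zero (hM : IsPModular p M) {f : Set (IrrCharacter G)} (hf : IsPBlock M f)
    {X : Subgroup G} [X.Normal] (hX : ¬ p ∣ Nat.card X) {χ₀ : IrrCharacter G} (hχ₀ : χ₀ ∈ f)
    (h : ¬ ∀ x ∈ X, (χ₀ : G → ℂ) x = (χ₀ : G → ℂ) 1) : blockElt f * kerElt X = 0 := by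
  classical
  apply eq_zero_of_om_eq_zero (isCentralElt_mul (isCentralElt_blockElt f) (isCentralElt_kerElt X))
  intro ψ
  rw [om_mul ψ.2 (isCentralElt_blockElt f)]
  by_cases hψ : ψ ∈ f
  · rw [om_kerElt_eq_zero ψ, mul_zero]
    intro hψX
    exact h (ker_of_sameBlock X hM hX (sameBlock_of_mem hf hψ hχ₀) hψX)
  · rw [om_blockElt_of_notMem hψ, zero_mul]

theorem blockElt_mul_kerElt_of_le {f : Set (IrrCharacter G)} {X : Subgroup G} [X.Normal]
    (h : ∀ χ ∈ f, ∀ x ∈ X, (χ : G → ℂ) x = (χ : G → ℂ) 1) : blockElt f * kerElt X = blockElt f := by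
  classical
  rw [← sub_eq_zero]
  apply eq_zero_of_om_eq_zero (isCentralElt_sub
    (isCentralElt_mul (isCentralElt_blockElt f) (isCentralElt_kerElt X)) (isCentralElt_blockElt f))
  intro ψ
  rw [om_sub, om_mul ψ.2 (isCentralElt_blockElt f)]
  by_cases hψ : ψ ∈ f
  · rw [om_kerElt_of_le ψ (h ψ hψ), mul_one, sub_self]
  · rw [om_blockElt_of_notMem hψ, zero_mul, sub_zero]

theorem resAlg_kerElt (T X : Subgroup G) :
    resAlg T (kerElt X) = ((Nat.card (X.subgroupOf T) : ℂ) / (Nat.card X : ℂ)) • kerElt (X.subgroupOf T) := by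
  classical
  apply ext_coeff
  intro t
  rw [coeff_resAlg, MonoidAlgebra.coeff_smul, Finsupp.smul_apply, smul_eq_mul]
  by_cases ht : (t : G) ∈ X
  · have ht' : t ∈ X.subgroupOf T := Subgroup.mem_subgroupOf.2 ht
    rw [coeff_kerElt_of_mem ht, coeff_kerElt_of_mem ht']
    have hc : (Nat.card (X.subgroupOf T) : ℂ) ≠ 0 := by exact_mod_cast Nat.card_pos.ne'
    field_simp
  · have ht' : t ∉ X.subgroupOf T := fun h => ht (Subgroup.mem_subgroupOf.1 h)
    rw [coeff_kerElt_of_notMem ht, coeff_kerElt_of_notMem ht', mul_zero]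

/-- Counting fixed points of a `p`-group acting by conjugation. -/
theorem card_subgroupOf_cen_modEq {P X : Subgroup G} (hP : IsPGroup p P)
    (hPX : ∀ u ∈ P, ∀ g ∈ X, u * g * u⁻¹ ∈ X) :
    Nat.card (X.subgroupOf (Cen P)) ≡ Nat.card X [MOD p] := by
  classical
  letI : MulAction P X :=
    { smul := fun u x => ⟨(u : G) * x * (u : G)⁻¹, hPX u u.2 x x.2⟩
      one_smul := fun x => Subtype.ext (by
        show ((1 : P) : G) * x * ((1 : P) : G)⁻¹ = x
        simp)
      mul_smul := fun a b x => Subtype.ext (by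
        show ((a * b : P) : G) * x * ((a * b : P) : G)⁻¹ = (a : G) * ((b : G) * x * (b : G)⁻¹) * (a : G)⁻¹
        simp only [Subgroup.coe_mul]
        group) }
  have h := hP.card_modEq_card_fixedPoints X
  have hsm : ∀ (u : P) (x : X), ((u • x : X) : G) = (u : G) * x * (u : G)⁻¹ := fun _ _ => rfl
  have e : Nat.card (MulAction.fixedPoints P X) = Nat.card (X.subgroupOf (Cen P)) := by
    refine Nat.card_congr ⟨fun x => ⟨⟨(x.1 : G), ?_⟩, ?_⟩, fun y => ⟨⟨(y.1 : G), ?_⟩, ?_⟩, ?_, ?_⟩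
    · rw [Subgroup.mem_centralizer_iff]
      intro u hu
      have h1 := x.2 ⟨u, hu⟩
      have h2 := congrArg Subtype.val h1
      rw [hsm] at h2
      show u * (x.1 : G) = (x.1 : G) * u
      have h3 : u * (x.1 : G) * u⁻¹ = (x.1 : G) := h2
      calc u * (x.1 : G) = (u * (x.1 : G) * u⁻¹) * u := by group
        _ = (x.1 : G) * u := by rw [h3]
    · exact Subgroup.mem_subgroupOf.2 x.1.2
    · exact Subgroup.mem_subgroupOf.1 y.2
    · intro u
      apply Subtype.ext
      rw [hsm]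
      have h1 := Subgroup.mem_centralizer_iff.1 (y.1.2) u u.2
      show (u : G) * ((y.1 : Cen P) : G) * (u : G)⁻¹ = ((y.1 : Cen P) : G)
      rw [h1]
      group
    · intro x
      rfl
    · intro y
      rfl
  rw [e] at h
  exact h.symm

theorem ratio_sub_one (hM : IsPModular p M) {a b : ℕ} (hb : ¬ p ∣ b) (h : a ≡ b [MOD p]) :
    MemLocalIdeal M ((a : ℂ) / (b : ℂ) - 1) := by
  have hb0 : (b : ℂ) ≠ 0 := by
    intro h0
    have : b = 0 := by exact_mod_cast h0
    exact hb (this ▸ dvd_zero p)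
  obtain ⟨t, ht⟩ := (Nat.modEq_iff_dvd.mp h)
  have e : (a : ℂ) / (b : ℂ) - 1 = (p : ℂ) * (((-t : ℤ) : ℂ) * (b : ℂ)⁻¹) := by
    have h2 : ((b : ℤ) : ℂ) - ((a : ℤ) : ℂ) = (p : ℂ) * (t : ℂ) := by
      have := congrArg (fun z : ℤ => (z : ℂ)) ht
      simpa using this
    push_cast at h2 ⊢
    field_simp
    linear_combination -h2
  rw [e]
  exact memLocalIdeal_mul_right (memLocalIdeal_p hM)
    (memLocalRing_mul (memLocalRing_intCast _) (memLocalRing_natCast_inv hM hb))

/-- The Brauer image of `kerElt X`, when the fixed points of `X` lie in the kernel of `ξ`. -/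
theorem om_res_kerElt_congr (hM : IsPModular p M) {P X : Subgroup G} (hP : IsPGroup p P)
    (hPX : ∀ u ∈ P, ∀ g ∈ X, u * g * u⁻¹ ∈ X) (hX : ¬ p ∣ Nat.card X) (ξ : IrrCharacter (Cen P))
    (hker : ∀ y : Cen P, (y : G) ∈ X → (ξ : Cen P → ℂ) y = (ξ : Cen P → ℂ) 1) :
    MemLocalIdeal M (om (ξ : Cen P → ℂ) (resAlg (Cen P) (kerElt X)) - 1) := by
  rw [resAlg_kerElt, om_smul, om_kerElt_of_le ξ (fun y hy => hker y (Subgroup.mem_subgroupOf.1 hy)), mul_one]
  exact ratio_sub_one hM hX (card_subgroupOf_cen_modEq hP hPX)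

/-- If `z` occurs at `ξ` and the fixed points of `X` lie in the kernel of `ξ`, then `z * e_X ≠ 0`. -/
theorem down_core (hM : IsPModular p M) {P X : Subgroup G} (hP : IsPGroup p P) (ξ : IrrCharacter (Cen P))
    {z : MonoidAlgebra ℂ G} (hzP : IsInvBy P z) (hzC : IsInvBy (Cen P) z) (hzl : LocalCoeff M z)
    (hz1 : MemLocalIdeal M (om (ξ : Cen P → ℂ) (resAlg (Cen P) z) - 1)) (hX : ¬ p ∣ Nat.card X)
    (hPX : ∀ u ∈ P, ∀ g ∈ X, u * g * u⁻¹ ∈ X) (hCX : ∀ u ∈ Cen P, ∀ g ∈ X, u * g * u⁻¹ ∈ X)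
    (hker : ∀ y : Cen P, (y : G) ∈ X → (ξ : Cen P → ℂ) y = (ξ : Cen P → ℂ) 1)
    (hzero : z * kerElt X = 0) : False := by
  have h := om_mul_congr hM hP ξ hzP (isInvBy_kerElt hPX) hzC (isInvBy_kerElt hCX) hzl
    (localCoeff_kerElt hM hX)
  rw [hzero, resAlg_zero, om_zero, zero_sub] at h
  refine not_both_one hz1 (om_res_kerElt_congr hM hP hPX hX ξ hker) ?_
    (memLocalRing_om ξ.2 (isCentralElt_resAlg_of_isInvBy hzC) (localCoeff_resAlg _ hzl))
  simpa using memLocalIdeal_neg h

/-- If `z` occurs at `ξ` and `z * e_X = z`, then the fixed points of `X` lie in the kernel of `ξ`. -/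
theorem up_core (hM : IsPModular p M) {P X : Subgroup G} (hP : IsPGroup p P) (ξ : IrrCharacter (Cen P))
    {z : MonoidAlgebra ℂ G} (hzP : IsInvBy P z) (hzC : IsInvBy (Cen P) z) (hzl : LocalCoeff M z)
    (hz1 : MemLocalIdeal M (om (ξ : Cen P → ℂ) (resAlg (Cen P) z) - 1)) (hX : ¬ p ∣ Nat.card X)
    (hPX : ∀ u ∈ P, ∀ g ∈ X, u * g * u⁻¹ ∈ X) (hCX : ∀ u ∈ Cen P, ∀ g ∈ X, u * g * u⁻¹ ∈ X)
    (hfix : z * kerElt X = z) :
    ∀ y : Cen P, (y : G) ∈ X → (ξ : Cen P → ℂ) y = (ξ : Cen P → ℂ) 1 := by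
  classical
  have hb : MemLocalRing M (om (ξ : Cen P → ℂ) (resAlg (Cen P) (kerElt X))) :=
    memLocalRing_om ξ.2 (isCentralElt_resAlg_of_isInvBy (isInvBy_kerElt hCX))
      (localCoeff_resAlg _ (localCoeff_kerElt hM hX))
  have ha : MemLocalRing M (om (ξ : Cen P → ℂ) (resAlg (Cen P) z)) :=
    memLocalRing_om ξ.2 (isCentralElt_resAlg_of_isInvBy hzC) (localCoeff_resAlg _ hzl)
  have h := om_mul_congr hM hP ξ hzP (isInvBy_kerElt hPX) hzC (isInvBy_kerElt hCX) hzl
    (localCoeff_kerElt hM hX)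
  rw [hfix] at h
  have hb1 : MemLocalIdeal M (om (ξ : Cen P → ℂ) (resAlg (Cen P) (kerElt X)) - 1) := by
    have e : om (ξ : Cen P → ℂ) (resAlg (Cen P) (kerElt X)) - 1 =
        - ((om (ξ : Cen P → ℂ) (resAlg (Cen P) z) - 1) * (om (ξ : Cen P → ℂ) (resAlg (Cen P) (kerElt X)) - 1)) -
        (om (ξ : Cen P → ℂ) (resAlg (Cen P) z) - om (ξ : Cen P → ℂ) (resAlg (Cen P) z) *
          om (ξ : Cen P → ℂ) (resAlg (Cen P) (kerElt X))) := by ring
    rw [e]
    exact memLocalIdeal_sub (memLocalIdeal_neg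
      (memLocalIdeal_mul_right hz1 (memLocalRing_sub hb memLocalRing_one))) h
  by_contra hcon
  push Not at hcon
  obtain ⟨y, hyX, hne⟩ := hcon
  haveI hnorm : (X.subgroupOf (Cen P)).Normal := by
    constructor
    intro n hn g
    rw [Subgroup.mem_subgroupOf] at hn ⊢
    exact hCX g g.2 n hn
  have h0 : om (ξ : Cen P → ℂ) (kerElt (X.subgroupOf (Cen P))) = 0 :=
    om_kerElt_eq_zero ξ (fun hall => hne (hall y (Subgroup.mem_subgroupOf.2 hyX)))
  rw [resAlg_kerElt, om_smul, h0, mul_zero, zero_sub] at hb1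
  apply not_memLocalIdeal_one (M := M)
  simpa using memLocalIdeal_neg hb1

end KerElt

section PiCore

variable {H K : Type*} [Group H] [Group K]

theorem piCore_primes [Finite H] (π' : Set ℕ) : ∀ q : ℕ, q.Prime → q ∣ Nat.card (piCore π' H) → q ∈ π' := by
  apply Cfsg.Agent.Lib.Core.sSup_mem_of_sup_closed (fun N : Subgroup H => ∀ q : ℕ, q.Prime → q ∣ Nat.card N → q ∈ π')
  · intro q hq h
    rw [Subgroup.card_bot] at h
    exact absurd (Nat.dvd_one.mp h) hq.ne_one
  · intro N N' hN hN' hc hc' q hq h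
    have h1 := h.trans (Cfsg.Agent.Lib.Core.card_sup_dvd N N')
    rcases (Nat.Prime.dvd_mul hq).mp h1 with h2 | h2
    · exact hc q hq h2
    · exact hc' q hq h2

theorem le_piCore {π' : Set ℕ} {N : Subgroup H} (hN : N.Normal) (h : ∀ q : ℕ, q.Prime → q ∣ Nat.card N → q ∈ π') :
    N ≤ piCore π' H := le_sSup ⟨hN, h⟩

theorem not_dvd_card_piCore [Finite H] {π' : Set ℕ} {p : ℕ} [hp : Fact p.Prime] (h : p ∉ π') :
    ¬ p ∣ Nat.card (piCore π' H) := fun hd => h (piCore_primes π' p hp.out hd)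

theorem map_mem_piCore (φ : H ≃* K) {π' : Set ℕ} {y : H} (hy : y ∈ piCore π' H) : φ y ∈ piCore π' K := by
  have h : piCore π' H ≤ (piCore π' K).comap φ.toMonoidHom := by
    refine sSup_le ?_
    rintro N ⟨hN, hc⟩ x hx
    have h1 : N.map φ.toMonoidHom ≤ piCore π' K := by
      apply le_piCore
      · exact hN.map _ φ.surjective
      · intro q hq hd
        apply hc q hq
        rwa [Subgroup.card_map_of_injective φ.injective] at hd
    exact h1 ⟨x, hx, rfl⟩
  exact h hy

end PiCore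

section PiProp

variable {G : Type*} [Group G] [Fintype G] {M : Ideal AlgInt} [hMp : M.IsPrime] {p : ℕ} [hp : Fact p.Prime]

/-- `O_{π'}(C_G(Q))` lies in the kernel of `f`. -/
def PiKerProp (π' : Set ℕ) (Q : Subgroup G) (f : Set (IrrCharacter (Cen Q))) : Prop :=
  ∀ y : Cen Q, y ∈ piCore π' (Cen Q) → ∀ ξ ∈ f, (ξ : Cen Q → ℂ) y = (ξ : Cen Q → ℂ) 1

/-- `O_{π'}(C_G(Q))` as a subgroup of `G`. -/
noncomputable abbrev piC (π' : Set ℕ) (Q : Subgroup G) : Subgroup G :=
  (piCore π' (Cen Q)).map (Cen Q).subtype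

theorem card_piC (π' : Set ℕ) (Q : Subgroup G) : Nat.card (piC π' Q) = Nat.card (piCore π' (Cen Q)) :=
  Subgroup.card_map_of_injective (Subgroup.subtype_injective _)

theorem mem_piC {π' : Set ℕ} {Q : Subgroup G} {c : Cen Q} : (c : G) ∈ piC π' Q ↔ c ∈ piCore π' (Cen Q) := by
  constructor
  · rintro ⟨v, hv, h⟩
    have : v = c := Subtype.ext h
    rwa [← this]
  · intro h
    exact ⟨c, h, rfl⟩

theorem piC_le_cen (π' : Set ℕ) (Q : Subgroup G) : piC π' Q ≤ Cen Q := Subgroup.map_subtype_le _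

theorem incl_kerElt (π' : Set ℕ) (Q : Subgroup G) :
    incl (Cen Q) (kerElt (piCore π' (Cen Q))) = kerElt (piC π' Q) := by
  classical
  apply ext_coeff
  intro g
  by_cases hg : g ∈ Cen Q
  · have e1 := coeff_incl_coe (Cen Q) (kerElt (piCore π' (Cen Q))) ⟨g, hg⟩
    simp only at e1
    rw [e1]
    by_cases hg' : (⟨g, hg⟩ : Cen Q) ∈ piCore π' (Cen Q)
    · rw [coeff_kerElt_of_mem hg', coeff_kerElt_of_mem (mem_piC.2 hg'), card_piC]
    · rw [coeff_kerElt_of_notMem hg', coeff_kerElt_of_notMem (fun h => hg' (mem_piC.1 h))]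
  · rw [coeff_incl_of_notMem _ _ hg, coeff_kerElt_of_notMem (fun h => hg (piC_le_cen π' Q h))]

/-- Conjugation by a normalizer element of `Q` preserves `O_{π'}(C_G(Q))`. -/
theorem conj_mem_piC {π' : Set ℕ} {Q : Subgroup G} {u g : G} (hu : u ∈ Subgroup.normalizer (Q : Set G))
    (hg : g ∈ piC π' Q) : u * g * u⁻¹ ∈ piC π' Q := by
  obtain ⟨c, hc, rfl⟩ := hg
  have hu' := normalizer_le_normalizer_cen hu
  have h1 := map_mem_piCore (nConj hu') hc
  exact ⟨_, h1, rfl⟩

theorem conj_mem_piC_of_cen {π' : Set ℕ} {Q : Subgroup G} {u g : G} (hu : u ∈ Cen Q)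
    (hg : g ∈ piC π' Q) : u * g * u⁻¹ ∈ piC π' Q := by
  obtain ⟨c, hc, rfl⟩ := hg
  have h1 := (inferInstance : (piCore π' (Cen Q)).Normal).conj_mem c hc ⟨u, hu⟩
  exact ⟨_, h1, rfl⟩

theorem card_subgroupOf_dvd (X T : Subgroup G) : Nat.card (X.subgroupOf T) ∣ Nat.card X := by
  let f : (X.subgroupOf T) →* X :=
    (T.subtype.comp (X.subgroupOf T).subtype).codRestrict X (fun y => Subgroup.mem_subgroupOf.1 y.2)
  refine Subgroup.card_dvd_of_injective f ?_
  intro a b hab
  apply Subtype.ext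
  apply Subtype.ext
  have h3 := congrArg Subtype.val hab
  exact h3

/-- The fixed points in `O_{π'}(C_G(Q))` of `C_G(R)` lie in `O_{π'}(C_G(R))` when `Q ≤ R`. -/
theorem mem_piCore_of_mem_piC {π' : Set ℕ} {Q R : Subgroup G} (hQR : Q ≤ R) {y : Cen R}
    (hy : (y : G) ∈ piC π' Q) : y ∈ piCore π' (Cen R) := by
  have hle : (piC π' Q).subgroupOf (Cen R) ≤ piCore π' (Cen R) := by
    apply le_piCore
    · constructor
      intro n hn g
      rw [Subgroup.mem_subgroupOf] at hn ⊢
      exact conj_mem_piC_of_cen (cen_le_cen hQR g.2) hn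
    · intro q hq hd
      refine piCore_primes π' (H := Cen Q) q hq ?_
      rw [← card_piC]
      refine hd.trans ?_
      exact card_subgroupOf_dvd _ _
  exact hle (Subgroup.mem_subgroupOf.2 hy)

/-- **Downward step.** -/
theorem piKer_of_normal (hM : IsPModular p M) {π' : Set ℕ} (hp' : p ∉ π') {Q R : Subgroup G}
    {f : Set (IrrCharacter (Cen Q))} {g : Set (IrrCharacter (Cen R))} (hn : IsNormalSubpair p M Q f R g)
    (hR : PiKerProp π' R g) : PiKerProp π' Q f := by
  classical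
  obtain ⟨hQf, hRg, hQR, hRN, hst, hom⟩ := isNormalSubpair_iff.1 hn
  by_contra hcon
  unfold PiKerProp at hcon
  push Not at hcon
  obtain ⟨y, hy, ψ, hψ, hne⟩ := hcon
  have hX : ¬ p ∣ Nat.card (piCore π' (Cen Q)) := not_dvd_card_piCore hp'
  have h0 : blockElt f * kerElt (piCore π' (Cen Q)) = 0 :=
    blockElt_mul_kerElt_eq_zero hM hQf.2 hX hψ (fun hall => hne (hall y hy))
  have h0' : Ee Q f * kerElt (piC π' Q) = 0 := by
    rw [← incl_kerElt]
    unfold Ee
    rw [← map_mul, h0, map_zero]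
  obtain ⟨ξ, hξ⟩ := IsPBlock_nonempty hRg.2
  refine down_core hM hRg.1 ξ (isInvBy_Ee_of_stable hQf.2 hst)
    (isInvBy_Ee_of_le (cen_le_cen hQR) f) (localCoeff_Ee hQf.2) (hom ξ hξ) (X := piC π' Q)
    (by rw [card_piC]; exact hX) (fun u hu g' hg' => conj_mem_piC (hRN hu) hg')
    (fun u hu g' hg' => conj_mem_piC_of_cen (cen_le_cen hQR hu) hg')
    (fun c hc => hR c (mem_piCore_of_mem_piC hQR hc) ξ hξ) h0'

theorem piKer_of_chain (hM : IsPModular p M) {π' : Set ℕ} (hp' : p ∉ π') {a b : BrauerPairIdx G}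
    (h : Relation.ReflTransGen (NormalSubpairRel p M) a b) (hb : PiKerProp π' b.1 b.2) :
    PiKerProp π' a.1 a.2 := by
  induction h using Relation.ReflTransGen.head_induction_on with
  | refl => exact hb
  | head hn _ ih => exact piKer_of_normal hM hp' hn ih

/-- Transport of the property along an isomorphism of centralizers. -/
theorem piKer_mapBlock {G' : Type*} [Group G'] [Fintype G'] {π' : Set ℕ} {Q : Subgroup G} {Q' : Subgroup G'}
    (φ : Cen Q ≃* Cen Q') {f : Set (IrrCharacter (Cen Q))}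
    (h : PiKerProp π' Q' (mapBlock φ f)) : PiKerProp π' Q f := by
  intro y hy ξ hξ
  have h1 := h (φ y) (map_mem_piCore φ hy) (mapIrr φ ξ) (mapIrr_mem_mapBlock.2 hξ)
  rw [mapIrr_apply] at h1
  rw [h1]
  have h2 := mapIrr_apply φ ξ 1
  rw [map_one] at h2
  exact h2

theorem piKer_mapBlock' {G' : Type*} [Group G'] [Fintype G'] {π' : Set ℕ} {Q : Subgroup G} {Q' : Subgroup G'}
    (φ : Cen Q ≃* Cen Q') {f : Set (IrrCharacter (Cen Q))}
    (h : PiKerProp π' Q f) : PiKerProp π' Q' (mapBlock φ f) := by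
  apply piKer_mapBlock φ.symm
  rwa [mapBlock_symm_mapBlock]

/-- **Key lemma.** The property passes from a maximal pair to all pairs. -/
theorem piKer_of_max (hM : IsPModular p M) {π' : Set ℕ} (hp' : p ∉ π') {B : Set (IrrCharacter G)}
    {P : Subgroup G} {e : Set (IrrCharacter (Cen P))} (hmax : IsMaximalBrauerPair p M B P e)
    (htop : PiKerProp π' P e) {Q : Subgroup G} {f : Set (IrrCharacter (Cen Q))}
    (hQf : IsBrauerPairOf p M B Q f) : PiKerProp π' Q f := by
  obtain ⟨x, hx⟩ := exists_conj_subpair hM hmax hQf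
  have h1 := piKer_of_chain hM hp' hx htop
  have h2 : PiKerProp π' (cj x Q) (mapBlock (cEquiv Q x) f) := by
    rw [← conjBlock_eq]
    exact h1
  exact piKer_mapBlock _ h2

/-- From the pairs of a block to the kernel of the block. -/
theorem le_ker_of_pair (hM : IsPModular p M) {π' : Set ℕ} (hp' : p ∉ π') {b : Set (IrrCharacter G)}
    {Q : Subgroup G} {f : Set (IrrCharacter (Cen Q))} (h : IsBrauerPairOf p M b Q f)
    (hprop : PiKerProp π' Q f) : ∀ x ∈ piCore π' G, ∀ χ ∈ b, (χ : G → ℂ) x = (χ : G → ℂ) 1 := by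
  classical
  obtain ⟨hQf, hb, hom⟩ := isBrauerPairOf_iff.1 h
  intro x hx χ hχ
  by_contra hne
  have hX : ¬ p ∣ Nat.card (piCore π' G) := not_dvd_card_piCore hp'
  have h0 : blockElt b * kerElt (piCore π' G) = 0 :=
    blockElt_mul_kerElt_eq_zero hM hb hX hχ (fun hall => hne (hall x hx))
  obtain ⟨ξ, hξ⟩ := IsPBlock_nonempty hQf.2
  have hbc := isCentralElt_blockElt b
  refine down_core hM hQf.1 ξ (hbc.isInvBy _) (hbc.isInvBy _)
    (localCoeff_blockElt (isBlockUnion_of_isPBlock hb)) (hom ξ hξ) hX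
    (fun u _ g hg => (inferInstance : (piCore π' G).Normal).conj_mem g hg u)
    (fun u _ g hg => (inferInstance : (piCore π' G).Normal).conj_mem g hg u) ?_ h0
  intro y hy
  refine hprop y ?_ ξ hξ
  have hle : (piCore π' G).subgroupOf (Cen Q) ≤ piCore π' (Cen Q) := by
    apply le_piCore
    · constructor
      intro n hn g
      rw [Subgroup.mem_subgroupOf] at hn ⊢
      exact (inferInstance : (piCore π' G).Normal).conj_mem _ hn _
    · intro q hq hd
      exact piCore_primes π' q hq (hd.trans (card_subgroupOf_dvd _ _))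
  exact hle (Subgroup.mem_subgroupOf.2 hy)

/-- At a normal `p`-subgroup, the property follows from the kernel of the block. -/
theorem piKer_of_normal_pair (hM : IsPModular p M) {π' : Set ℕ} (hp' : p ∉ π') {S : Subgroup G} (hS : S.Normal)
    {b : Set (IrrCharacter G)} {s : Set (IrrCharacter (Cen S))} (hs : IsBrauerPairOf p M b S s)
    (hker : ∀ n ∈ piCore π' G, ∀ χ ∈ b, (χ : G → ℂ) n = (χ : G → ℂ) 1) : PiKerProp π' S s := by
  classical
  obtain ⟨hSs, hb, hom⟩ := isBrauerPairOf_iff.1 hs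
  have hnorm : ∀ g : G, g ∈ Subgroup.normalizer (S : Set G) := by
    intro g
    rw [Subgroup.mem_normalizer_iff]
    intro h
    constructor
    · intro hh
      exact hS.conj_mem h hh g
    · intro hh
      have := hS.conj_mem _ hh g⁻¹
      have e : g⁻¹ * (g * h * g⁻¹) * g⁻¹⁻¹ = h := by group
      rwa [e] at this
  haveI hX : (piC π' S).Normal := by
    constructor
    intro n hn g
    exact conj_mem_piC (hnorm g) hn
  have hXc : ¬ p ∣ Nat.card (piC π' S) := by
    rw [card_piC]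
    exact not_dvd_card_piCore hp'
  have hle : piC π' S ≤ piCore π' G := by
    apply le_piCore hX
    intro q hq hd
    rw [card_piC] at hd
    exact piCore_primes π' q hq hd
  have hfix : blockElt b * kerElt (piC π' S) = blockElt b :=
    blockElt_mul_kerElt_of_le (fun χ hχ x hx => hker x (hle hx) χ hχ)
  intro y hy ξ hξ
  have hbc := isCentralElt_blockElt b
  exact up_core hM hSs.1 ξ (hbc.isInvBy _) (hbc.isInvBy _)
    (localCoeff_blockElt (isBlockUnion_of_isPBlock hb)) (hom ξ hξ) hXc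
    (fun u _ g hg => hX.conj_mem g hg u) (fun u _ g hg => hX.conj_mem g hg u) hfix y (mem_piC.2 hy)

/-- All pairs of `B` have the property, if `O_{π'}(N_G(D))` is in the kernel of the Brauer correspondent. -/
theorem piKer_all_pairs (hM : IsPModular p M) {π' : Set ℕ} (hp' : p ∉ π') {B : Set (IrrCharacter G)}
    {D : Subgroup G} (hBD : IsDefectGroup p M B D)
    {B₁ : Set (IrrCharacter (Subgroup.normalizer (D : Set G)))}
    (hB₁ : IsInducedBlock M (Subgroup.normalizer (D : Set G)) B₁ B)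
    (hB₁D : IsDefectGroup p M B₁ (D.subgroupOf (Subgroup.normalizer (D : Set G))))
    (hker : ∀ n : (Subgroup.normalizer (D : Set G)), n ∈ piCore π' (Subgroup.normalizer (D : Set G)) →
      n ∈ blockKer B₁)
    {Q : Subgroup G} {f : Set (IrrCharacter (Cen Q))} (hQf : IsBrauerPairOf p M B Q f) : PiKerProp π' Q f := by
  classical
  have hDL : D ≤ Subgroup.normalizer (D : Set G) := Subgroup.le_normalizer
  have hupS : up (D.subgroupOf (Subgroup.normalizer (D : Set G))) = D :=
    Subgroup.map_subgroupOf_eq_of_le hDL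
  have hCL : Cen (up (D.subgroupOf (Subgroup.normalizer (D : Set G)))) ≤ Subgroup.normalizer (D : Set G) := by
    rw [hupS]
    intro c hc
    rw [Subgroup.mem_normalizer_iff]
    intro h
    constructor
    · intro hh
      have h1 := Subgroup.mem_centralizer_iff.1 hc h hh
      have e : c * h * c⁻¹ = h := by
        rw [← h1]
        group
      rwa [e]
    · intro hh
      have h2 := Subgroup.mem_centralizer_iff.1 hc _ hh
      have e : h = c * h * c⁻¹ := by
        have h3 : c * h = c * (c * h * c⁻¹) := by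
          calc c * h = (c * h * c⁻¹) * c := by group
            _ = c * (c * h * c⁻¹) := h2
        exact mul_left_cancel h3
      rwa [e]
  haveI hN : (D.subgroupOf (Subgroup.normalizer (D : Set G))).Normal := Subgroup.normal_in_normalizer
  have hpg : IsPGroup p (up (D.subgroupOf (Subgroup.normalizer (D : Set G)))) := by
    rw [hupS]
    exact isPGroup_of_isDefectGroup hBD
  obtain ⟨s, hs⟩ := exists_pair_on_defect hM hB₁D hB₁.1
  have hup := isBrauerPairOf_up hM hB₁ hCL hs hpg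
  have hmax0 := isMaximal_of_defect hM (P := up (D.subgroupOf (Subgroup.normalizer (D : Set G))))
    (by rw [hupS]; exact hBD) hup
  have htop := piKer_mapBlock' (cenIso (D.subgroupOf (Subgroup.normalizer (D : Set G))) hCL)
    (piKer_of_normal_pair hM hp' hN hs (fun n hn χ hχ => hker n hn χ hχ))
  exact piKer_of_max hM hp' hmax0 htop hQf

end PiProp

end Cfsg.Agent.Lib.Degree
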