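import Mathlib
import Cfsg.Agent.Lib.Degree.PiKer

/-!
# Moving the kernel property up along Brauer pairs

When the `π'`-elements of `C_G(D₀)` lie in `O_{π'}(C_G(D₀))`, the property "`O_{π'}(C_G(Q))` lies in the
kernel of `f`" also passes upwards along inclusions of Brauer pairs above `D₀`.
-/

set_option autoImplicit false
set_option linter.unusedSectionVars false
set_option linter.unusedSimpArgs false
set_option linter.unusedVariables false

open scoped ComplexConjugate Pointwise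
open Cfsg MonoidAlgebra
open Cfsg.Agent.Lib.Block Cfsg.Agent.Lib.Char Cfsg.Agent.Lib.CharExtra Cfsg.Agent.Lib.BPair

namespace Cfsg.Agent.Lib.Degree

attribute [local instance] subFintype

variable {G : Type*} [Group G] [Fintype G] {M : Ideal AlgInt} [hMp : M.IsPrime] {p : ℕ} [hp : Fact p.Prime]

/-- **Upward step.** -/
theorem piKer_up (hM : IsPModular p M) {π' : Set ℕ} (hp' : p ∉ π') {Q R : Subgroup G}
    {f : Set (IrrCharacter (Cen Q))} {g : Set (IrrCharacter (Cen R))} (hn : IsNormalSubpair p M Q f R g)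
    (hQ : PiKerProp π' Q f) (hsub : ∀ y : Cen R, y ∈ piCore π' (Cen R) → (y : G) ∈ piC π' Q) :
    PiKerProp π' R g := by
  classical
  obtain ⟨hQf, hRg, hQR, hRN, hst, hom⟩ := isNormalSubpair_iff.1 hn
  intro y hy ξ hξ
  have hX : ¬ p ∣ Nat.card (piC π' Q) := by
    rw [card_piC]
    exact not_dvd_card_piCore hp'
  have hfix0 : blockElt f * kerElt (piCore π' (Cen Q)) = blockElt f :=
    blockElt_mul_kerElt_of_le (fun χ hχ x hx => hQ x hx χ hχ)
  have hfix : Ee Q f * kerElt (piC π' Q) = Ee Q f := by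
    rw [← incl_kerElt]
    unfold Ee
    rw [← map_mul, hfix0]
  exact up_core hM hRg.1 ξ (isInvBy_Ee_of_stable hQf.2 hst) (isInvBy_Ee_of_le (cen_le_cen hQR) f)
    (localCoeff_Ee hQf.2) (hom ξ hξ) hX (fun u hu g' hg' => conj_mem_piC (hRN hu) hg')
    (fun u hu g' hg' => conj_mem_piC_of_cen (cen_le_cen hQR hu) hg') hfix y (hsub y hy)

/-- Every `π'`-element of `C_G(D₀)` lies in `O_{π'}(C_G(D₀))`. -/
def PiCompl (π' : Set ℕ) (D₀ : Subgroup G) : Prop :=
  ∀ y : Cen D₀, (∀ q : ℕ, q.Prime → q ∣ orderOf y → q ∈ π') → y ∈ piCore π' (Cen D₀)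

theorem mem_piC_of_piCore {π' : Set ℕ} {D₀ : Subgroup G} (hc : PiCompl π' D₀) {Q R : Subgroup G}
    (hD₀ : D₀ ≤ Q) (hQR : Q ≤ R) (y : Cen R) (hy : y ∈ piCore π' (Cen R)) : (y : G) ∈ piC π' Q := by
  have hprimes : ∀ q : ℕ, q.Prime → q ∣ orderOf (y : G) → q ∈ π' := by
    intro q hq hd
    have h1 := orderOf_dvd_natCard (⟨y, hy⟩ : piCore π' (Cen R))
    rw [Subgroup.orderOf_mk] at h1
    rw [Subgroup.orderOf_coe] at hd
    exact piCore_primes π' q hq (hd.trans h1)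
  have hyD : (y : G) ∈ Cen D₀ := cen_le_cen (hD₀.trans hQR) y.2
  have h1 := hc ⟨y, hyD⟩ (by
    rw [Subgroup.orderOf_mk]
    exact hprimes)
  have h2 : ((⟨y, hyD⟩ : Cen D₀) : G) ∈ piC π' D₀ := mem_piC.2 h1
  have h3 : (⟨y, cen_le_cen hQR y.2⟩ : Cen Q) ∈ piCore π' (Cen Q) := mem_piCore_of_mem_piC hD₀ h2
  have h4 : ((⟨y, cen_le_cen hQR y.2⟩ : Cen Q) : G) ∈ piC π' Q := mem_piC.2 h3
  exact h4

theorem piKer_chain_up (hM : IsPModular p M) {π' : Set ℕ} (hp' : p ∉ π') {D₀ : Subgroup G} (hc : PiCompl π' D₀)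
    {a b : BrauerPairIdx G} (h : Relation.ReflTransGen (NormalSubpairRel p M) a b) (haD : D₀ ≤ a.1)
    (ha : PiKerProp π' a.1 a.2) : D₀ ≤ b.1 ∧ PiKerProp π' b.1 b.2 := by
  induction h with
  | refl => exact ⟨haD, ha⟩
  | tail _ hn ih =>
    obtain ⟨hD, hprop⟩ := ih
    obtain ⟨-, -, hQR, -⟩ := isNormalSubpair_iff.1 hn
    exact ⟨hD.trans hQR, piKer_up hM hp' hn hprop (fun y hy => mem_piC_of_piCore hc hD hQR y hy)⟩

/-- If one pair above `D₀` has the property, then all pairs of `B` have it. -/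
theorem piKer_all_of_low (hM : IsPModular p M) {π' : Set ℕ} (hp' : p ∉ π') {D₀ : Subgroup G} (hc : PiCompl π' D₀)
    {B : Set (IrrCharacter G)} {Q : Subgroup G} {f : Set (IrrCharacter (Cen Q))}
    (hQf : IsBrauerPairOf p M B Q f) (hD₀Q : D₀ ≤ Q) (hprop : PiKerProp π' Q f)
    {Q' : Subgroup G} {f' : Set (IrrCharacter (Cen Q'))} (hQ' : IsBrauerPairOf p M B Q' f') :
    PiKerProp π' Q' f' := by
  obtain ⟨P, e, hmax, hle⟩ := exists_max_above hM _ Q f rfl hQf
  exact piKer_of_max hM hp' hmax (piKer_chain_up hM hp' hc hle hD₀Q hprop).2 hQ'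

end Cfsg.Agent.Lib.Degree
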